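import Cfsg.Agent.H804.TitsFive
import Cfsg.Agent.H845.TitsQData
import Cfsg.Agent.H301.SY.Base
import Cfsg.Agent.H184.StrTits
import Cfsg.Agent.Lib.VonDyck
import Cfsg.Agent.H2.LfRow

/-!
# S3846: the row of the Tits group

Elements of order `5`, `13` are products of an involution and an element of order three which generate a proper
subgroup (`A₅`, respectively a subgroup of order `5616`): they are not in its radical.
-/

set_option autoImplicit false

namespace Cfsg.Agent.H528.SY.Tits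

open Subgroup Cfsg Cfsg.Agent.H301.SY Cfsg.Agent.H459.Rad

section Gen

variable {G : Type*} [Group G]

/-- an involution and an element of order three with product of order `p ≥ 5` do not generate a solvable group -/
theorem not_both {s t : G} {p : ℕ} (hp : p.Prime) (h5 : 5 ≤ p) (hs : s ^ 2 = 1) (ht : t ^ 3 = 1)
    (hst : (s * t) ^ p = 1) (hs1 : s ≠ 1) (R : Subgroup G) (hR : Group.IsSolvable R) (hsR : s ∈ R) (htR : t ∈ R) :
    False := by
  obtain ⟨s', hs'⟩ : ∃ s' : R, s' = ⟨s, hsR⟩ := ⟨_, rfl⟩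
  obtain ⟨t', ht'⟩ : ∃ t' : R, t' = ⟨t, htR⟩ := ⟨_, rfl⟩
  have h1 : s' ^ 2 = 1 := by rw [hs']; exact Subtype.ext hs
  have h2 : t' ^ 3 = 1 := by rw [ht']; exact Subtype.ext ht
  have h3 : (s' * t') ^ p = 1 := by rw [hs', ht']; exact Subtype.ext hst
  have hc2 : Nat.Coprime 2 p := (Nat.coprime_primes Nat.prime_two hp).2 (by omega)
  have hc3 : Nat.Coprime 3 p := (Nat.coprime_primes Nat.prime_three hp).2 (by omega)
  have h4 := Cfsg.Agent.H2.perfect_of_coprime h1 h2 h3 (by norm_num) hc2 hc3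
  have h5 : (closure {s', t'} : Subgroup R) ≠ ⊥ := by
    intro h6
    have h7 : s' ∈ (⊥ : Subgroup R) := by
      rw [← h6]
      exact subset_closure (Or.inl rfl)
    rw [mem_bot, hs'] at h7
    exact hs1 (congrArg Subtype.val h7)
  exact (Group.IsSolvable.commutator_lt_of_ne_bot h5).ne h4

/-- the product is not in the radical -/
theorem not_mem_rad [Finite G] {s t : G} {p : ℕ} (hp : p.Prime) (h5 : 5 ≤ p) (hs : s ^ 2 = 1) (ht : t ^ 3 = 1)
    (hst : (s * t) ^ p = 1) (hs1 : s ≠ 1) (M : Subgroup G) (hsM : s ∈ M) (htM : t ∈ M) : s * t ∉ radIn M := by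
  intro h
  have h1 : (⟨s, hsM⟩ * ⟨t, htM⟩ : M) ∈ solvableRadical M := mem_radIn_coe.1 h
  have hn : (solvableRadical M).Normal := rad_normal _
  obtain ⟨s', hs'⟩ : ∃ s' : M, s' = ⟨s, hsM⟩ := ⟨_, rfl⟩
  obtain ⟨t', ht'⟩ : ∃ t' : M, t' = ⟨t, htM⟩ := ⟨_, rfl⟩
  rw [← hs', ← ht'] at h1
  have h2 : s' ^ 2 = 1 := by rw [hs']; exact Subtype.ext hs
  have h3 : t' ^ 3 = 1 := by rw [ht']; exact Subtype.ext ht
  have e1 : (QuotientGroup.mk' (solvableRadical M)) (s' * t') = 1 := (QuotientGroup.eq_one_iff _).2 h1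
  have e2 : (QuotientGroup.mk' (solvableRadical M)) s' ^ 2 = 1 := by rw [← map_pow, h2, map_one]
  have e3 : (QuotientGroup.mk' (solvableRadical M)) t' ^ 3 = 1 := by rw [← map_pow, h3, map_one]
  rw [map_mul] at e1
  have e4 : (QuotientGroup.mk' (solvableRadical M)) t' = ((QuotientGroup.mk' (solvableRadical M)) s')⁻¹ :=
    (inv_eq_of_mul_eq_one_right e1).symm
  have e5 : (QuotientGroup.mk' (solvableRadical M)) s' = 1 := by
    rw [e4, inv_pow, inv_eq_one] at e3
    rw [pow_succ, e2, one_mul] at e3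
    exact e3
  have e6 : (QuotientGroup.mk' (solvableRadical M)) t' = 1 := by rw [e4, e5, inv_one]
  have hs2 : s' ∈ solvableRadical M := (QuotientGroup.eq_one_iff _).1 e5
  have ht2 : t' ∈ solvableRadical M := (QuotientGroup.eq_one_iff _).1 e6
  refine not_both hp h5 hs ht hst hs1 (radIn M) (radIn_solvable M) ?_ ?_
  · have := mem_radIn_coe.2 hs2
    rwa [hs'] at this
  · have := mem_radIn_coe.2 ht2
    rwa [ht'] at this

/-- the data used below -/
def Pr (p : ℕ) (y : G) : Prop :=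
  ∃ s t : G, s ^ 2 = 1 ∧ t ^ 3 = 1 ∧ (s * t) ^ p = 1 ∧ s ≠ 1 ∧ s * t ∈ zpowers y ∧ y ∈ zpowers (s * t) ∧
    (closure {s, t} : Subgroup G) ≠ ⊤

theorem Pr.false [Finite G] {p : ℕ} (hp : p.Prime) (h5 : 5 ≤ p) {y : G} (h : Pr p y) (hR : RE y) : False := by
  obtain ⟨s, t, hs, ht, hst, hs1, h1, h2, hne⟩ := h
  have hsM : s ∈ (closure {s, t} : Subgroup G) := subset_closure (Or.inl rfl)
  have htM : t ∈ (closure {s, t} : Subgroup G) := subset_closure (Or.inr rfl)
  have hy : y ∈ (closure {s, t} : Subgroup G) := (zpowers_le.2 (mul_mem hsM htM)) h2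
  refine not_mem_rad hp h5 hs ht hst hs1 _ hsM htM ?_
  exact (zpowers_le.2 (hR _ hne hy)) h1

theorem Pr.map {L : Type*} [Group L] {p : ℕ} (e : L ≃* G) {y : L} (h : Pr p (e y)) : Pr p y := by
  obtain ⟨s, t, hs, ht, hst, hs1, h1, h2, hne⟩ := h
  refine ⟨e.symm s, e.symm t, by rw [← map_pow, hs, map_one], by rw [← map_pow, ht, map_one],
    by rw [← map_mul, ← map_pow, hst, map_one], fun h => hs1 ?_, ?_, ?_, fun h => hne ?_⟩
  · rw [← e.apply_symm_apply s, h, map_one]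
  · obtain ⟨k, hk⟩ := mem_zpowers_iff.1 h1
    refine mem_zpowers_iff.2 ⟨k, e.injective ?_⟩
    rw [map_zpow, hk, map_mul, e.apply_symm_apply, e.apply_symm_apply]
  · obtain ⟨k, hk⟩ := mem_zpowers_iff.1 h2
    refine mem_zpowers_iff.2 ⟨k, e.injective ?_⟩
    rw [map_zpow, map_mul, e.apply_symm_apply, e.apply_symm_apply, hk]
  · have h3 := MonoidHom.map_closure e.toMonoidHom ({e.symm s, e.symm t} : Set L)
    rw [h, Set.image_pair] at h3
    have h4 : e.toMonoidHom (e.symm s) = s := e.apply_symm_apply s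
    have h5 : e.toMonoidHom (e.symm t) = t := e.apply_symm_apply t
    rw [h4, h5, ← MonoidHom.range_eq_map, MonoidHom.range_eq_top.2 e.surjective] at h3
    exact h3.symm

/-- conjugation -/
theorem Pr.conj {p : ℕ} (g : G) {y : G} (h : Pr p (g * y * g⁻¹)) : Pr p y :=
  Pr.map (MulAut.conj g) h

theorem Pr.mk' {p : ℕ} {s t y : G} (hs : s ^ 2 = 1) (ht : t ^ 3 = 1) (hst : (s * t) ^ p = 1) (hs1 : s ≠ 1)
    (hne : (closure {s, t} : Subgroup G) ≠ ⊤) (hy : y = s * t) : Pr p y :=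
  ⟨s, t, hs, ht, hst, hs1, by rw [hy]; exact mem_zpowers _, by rw [hy]; exact mem_zpowers _, hne⟩

theorem orderOf_cj (g y : G) : orderOf (g * y * g⁻¹) = orderOf y :=
  orderOf_injective (MulAut.conj g).toMonoidHom (MulAut.conj g).injective y

theorem Pr.of_zpowers {p : ℕ} {y y' : G} (h : Pr p y) (he : zpowers y' = zpowers y) : Pr p y' := by
  obtain ⟨s, t, hs, ht, hst, hs1, h1, h2, hne⟩ := h
  refine ⟨s, t, hs, ht, hst, hs1, by rw [he]; exact h1, ?_, hne⟩
  exact (zpowers_le.2 h2) (by rw [← he]; exact mem_zpowers y')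

end Gen

section Model

open Cfsg.Agent.KFacts.OddLift Cfsg.Agent.KFacts.OddLift.Basic Cfsg.Agent.KFacts.OddLift.TitMat
  Cfsg.Agent.KFacts.OddLift.TitGen
open Cfsg.Agent.SporadicRecognition.CosetCert Cfsg.Agent.SporadicRecognition.CosetCertHyp
open Cfsg.Agent.ChevalleyStructure.Tits.Pack Cfsg.Agent.ChevalleyStructure.Tits.Data
  Cfsg.Agent.ChevalleyStructure.Tits.Mat Cfsg.Agent.ChevalleyStructure.Tits.Main
  Cfsg.Agent.ChevalleyStructure.Tits.Order
open Cfsg.Agent.H87.TitsData (pw ev_pw ev_one toMat_ne bit0)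
open Cfsg.Agent.H845.TitsQData (ev_ne mem_M M_ne)

/-- words -/
def s5 : List ℕ := [4, 1, 2, 5, 0]
def t5 : List ℕ := [4, 7]
def s13 : List ℕ := [2, 5, 0, 4, 1]
def t13 : List ℕ := [2]

def rl : List (List ℕ) := [pw s5 2, pw t5 3, pw (s5 ++ t5) 5, pw s13 2, pw t13 3, pw (s13 ++ t13) 13]

theorem rl_ok : rl.all (fun p => Nat.beq (evP p) (evP [])) = true := by decide +kernel

theorem rl_lt : rl.all (fun p => p.all fun y => Nat.blt y 8) = true := by decide +kernel

theorem rel {u : List ℕ} (h : u ∈ rl) : ev (lt b 4) u = 1 := by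
  have h1 := rl_ok
  rw [List.all_eq_true] at h1
  have h2 := rl_lt
  rw [List.all_eq_true] at h2
  have h3 := h2 _ h
  rw [← ev_nil (lt b 4)]
  apply Subtype.ext
  rw [coe_ev_b, coe_ev_b]
  apply Subtype.ext
  rw [coe_ev_bH, coe_ev_bH]
  apply Units.ext
  rw [coe_ev (all_lt8 h3), coe_ev (by simp), Nat.eq_of_beq_eq_true (h1 _ h)]

theorem bit5 : (evP s5).testBit (4 + 3) = true := by decide +kernel
theorem bit13 : (evP s13).testBit (4 + 3) = true := by decide +kernel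

theorem s5_ne : ev (lt b 4) s5 ≠ 1 := ev_ne (by decide) 3 bit5
theorem s13_ne : ev (lt b 4) s13 ≠ 1 := ev_ne (by decide) 3 bit13

theorem finC : Finite (commutator H0) := by
  apply Nat.finite_of_card_ne_zero
  rw [H0_result.2.2.2]
  norm_num

theorem pr5_base : Pr 5 (ev (lt b 4) (s5 ++ t5)) := by
  have hs : ev (lt b 4) s5 ^ 2 = 1 := by
    rw [← ev_pw]; exact rel (by simp [rl])
  have ht : ev (lt b 4) t5 ^ 3 = 1 := by
    rw [← ev_pw]; exact rel (by simp [rl])
  have hst : (ev (lt b 4) s5 * ev (lt b 4) t5) ^ 5 = 1 := by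
    rw [← ev_append, ← ev_pw]; exact rel (by simp [rl])
  refine Pr.mk' hs ht hst s5_ne ?_ (ev_append _ _ _)
  intro h
  obtain ⟨e⟩ := Lib.VonDyck.closure_equiv_alternatingFive hs ht hst (Or.inl s5_ne)
  have h1 := Nat.card_congr e.toEquiv
  rw [h, card_top, H0_result.2.2.2, nat_card_alternatingGroup] at h1
  norm_num [Nat.factorial] at h1

theorem pr13_base : Pr 13 (ev (lt b 4) (s13 ++ t13)) := by
  have hs : ev (lt b 4) s13 ^ 2 = 1 := by
    rw [← ev_pw]; exact rel (by simp [rl])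
  have ht : ev (lt b 4) t13 ^ 3 = 1 := by
    rw [← ev_pw]; exact rel (by simp [rl])
  have hst : (ev (lt b 4) s13 * ev (lt b 4) t13) ^ 13 = 1 := by
    rw [← ev_append, ← ev_pw]; exact rel (by simp [rl])
  refine Pr.mk' hs ht hst s13_ne ?_ (ev_append _ _ _)
  intro h
  apply M_ne
  rw [eq_top_iff, ← h, closure_le]
  rintro w hw
  simp only [Set.mem_insert_iff, Set.mem_singleton_iff] at hw
  rcases hw with rfl | rfl
  · exact mem_M (by decide)
  · exact mem_M (by decide)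

theorem orderOf_base {w : List ℕ} {p : ℕ} (hp : p.Prime) (h : Pr p (ev (lt b 4) w)) :
    orderOf (ev (lt b 4) w) = p := by
  obtain ⟨s, t, hs, ht, hst, hs1, h1, h2, hne⟩ := h
  have : Fact p.Prime := ⟨hp⟩
  have h3 : ev (lt b 4) w ^ p = 1 := by
    obtain ⟨k, hk⟩ := mem_zpowers_iff.1 h2
    rw [← hk, ← zpow_natCast, ← zpow_mul, mul_comm, zpow_mul, zpow_natCast, hst, one_zpow]
  refine orderOf_eq_prime h3 fun h4 => ?_
  rw [h4, zpowers_one_eq_bot, mem_bot] at h1
  have h5 : s = 1 := by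
    have e4 : t = s⁻¹ := (inv_eq_of_mul_eq_one_right h1).symm
    rw [e4, inv_pow, inv_eq_one] at ht
    rw [pow_succ, hs, one_mul] at ht
    exact ht
  exact hs1 h5

open Cfsg.Agent.Omega.TwoF.Tits in
theorem pr5 {y : C} (hy : orderOf y = 5) : Pr 5 y := by
  obtain ⟨g, hg⟩ := Cfsg.Agent.H804.TitsFive.exists_conj hy
  obtain ⟨k, hk⟩ := Cfsg.Agent.H804.TitsFive.exists_conj (y := (ev (lt b 4) (s5 ++ t5) : C))
    (orderOf_base (by norm_num) pr5_base)
  refine Pr.conj (k⁻¹ * g) ?_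
  have h1 : k⁻¹ * g * y * (k⁻¹ * g)⁻¹ = ev (lt b 4) (s5 ++ t5) := by
    calc k⁻¹ * g * y * (k⁻¹ * g)⁻¹ = k⁻¹ * (g * y * g⁻¹) * k := by group
      _ = k⁻¹ * (k * ev (lt b 4) (s5 ++ t5) * k⁻¹) * k := by rw [hg, hk]
      _ = ev (lt b 4) (s5 ++ t5) := by group
  rw [h1]
  exact pr5_base

open Cfsg.Agent.Omega.TwoF.Tits in
theorem pr13 {y : C} (hy : orderOf y = 13) : Pr 13 y := by
  have hf : Finite C := finC
  have : Fact (Nat.Prime 13) := ⟨by norm_num⟩
  have h13 := orderOf_base (by norm_num) pr13_base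
  have hcyc : ∀ P : Sylow 13 C, IsCyclic (P : Subgroup C) := fun P => Cfsg.Agent.H184.StrTits.cyclic_of_sq (by
    rw [H0_result.2.2.2]
    norm_num) P
  obtain ⟨g, hg⟩ := exists_conj_mem hcyc hy (L := zpowers (ev (lt b 4) (s13 ++ t13))) (by
    rw [Nat.card_zpowers, h13])
  refine Pr.conj g (pr13_base.of_zpowers ?_)
  refine eq_of_le_of_card_ge (zpowers_le.2 hg) ?_
  have h1 : orderOf (g * y * g⁻¹) = orderOf y := orderOf_cj g y
  rw [Nat.card_zpowers, Nat.card_zpowers, h13, h1, hy]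

theorem pr_aux (T : Subgroup (GL I52 (ZMod 2))) (hT : T = H0) {p : ℕ} (hp : p = 5 ∨ p = 13)
    {y : ↥(_root_.commutator T)} (hy : orderOf y = p) : Pr p y := by
  subst hT
  rcases hp with rfl | rfl
  · exact pr5 hy
  · exact pr13 hy

end Model

theorem pr_transfer {X Y : Type*} [Group X] [Group Y] (T : Subgroup Y) (e : X ≃* ↥(_root_.commutator T)) {p : ℕ}
    (h : ∀ y' : ↥(_root_.commutator T), orderOf y' = p → Pr p y') {y : X} (hy : orderOf y = p) : Pr p y :=
  Pr.map e (h _ (by rw [MulEquiv.orderOf_eq, hy]))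

theorem pr_iso {K : Type*} [Group K] (h : Lie.IsoTits K) {p : ℕ} (hp : p = 5 ∨ p = 13) {y : K} (hy : orderOf y = p) :
    Pr p y := by
  obtain ⟨T, hT, ⟨e⟩⟩ := Cfsg.Agent.Omega.TwoF.TitsAut.exists_equiv h
  exact pr_transfer T e (fun y' hy' => pr_aux T hT hp hy') hy

/-- **The row of the Tits group**: there is no `x` of prime order `p ≥ 5` with `RC x`. -/
theorem no_rc {K : Type*} [Group K] [Finite K] [IsSimpleGroup K] {p : ℕ} [Fact p.Prime] (h : Lie.IsoTits K)
    (hp : 5 ≤ p) (x : MulAut K) (hx : orderOf x = p) (hR : RC x) : False := by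
  have ho := Cfsg.Agent.CpAutTits.Row.out h
  obtain ⟨y, rfl⟩ := Cfsg.Agent.CpAutTits.Row.autInner h (Fact.out : p.Prime) (by omega) x hx
  have hc := Cfsg.Agent.CpAutTits.Row.center_bot ho
  have hy : orderOf y = p := by rw [← Cfsg.Agent.CpAut.orderOf_conj hc y, hx]
  have hdvd : p ∣ 2 ^ 11 * 3 ^ 3 * 5 ^ 2 * 13 := by
    rw [← ho.card, ← hy]
    exact orderOf_dvd_natCard y
  have hp' : p.Prime := Fact.out
  have hcases : p = 5 ∨ p = 13 := by
    rcases (Nat.Prime.dvd_mul hp').1 hdvd with h1 | h1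
    · rcases (Nat.Prime.dvd_mul hp').1 h1 with h1 | h1
      · rcases (Nat.Prime.dvd_mul hp').1 h1 with h1 | h1
        · have := (Nat.prime_dvd_prime_iff_eq hp' Nat.prime_two).1 (hp'.dvd_of_dvd_pow h1)
          omega
        · have := (Nat.prime_dvd_prime_iff_eq hp' Nat.prime_three).1 (hp'.dvd_of_dvd_pow h1)
          omega
      · exact Or.inl ((Nat.prime_dvd_prime_iff_eq hp' (by norm_num)).1 (hp'.dvd_of_dvd_pow h1))
    · exact Or.inr ((Nat.prime_dvd_prime_iff_eq hp' (by norm_num)).1 h1)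
  exact Pr.false hp' hp (pr_iso h hcases hy) (RE.of_rc hR)

/-- **row Tits** -/
theorem noya_tits {K : Type*} [Group K] [Finite K] [IsSimpleGroup K] {p : ℕ} [Fact p.Prime] (h : Lie.IsoTits K)
    (hp : 5 ≤ p) : NoYA p K := fun x hx hR _ => no_rc h hp x hx hR

end Cfsg.Agent.H528.SY.Tits
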